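import Cfsg.Agent.Lib.Theta.Unimodular
import Mathlib.NumberTheory.ModularForms.LevelOne.GradedRing

set_option autoImplicit false
open Matrix Complex ModularForm SlashInvariantForm ModularFormClass MatrixGroups Filter
open UpperHalfPlane hiding I
open scoped Real Topology Manifold

namespace Cfsg.Agent.Lib.Theta.Form

open Cfsg.Agent.Lib.Theta.Poisson Cfsg.Agent.Lib.Theta.Unimodular

/-- Hypotheses: an even unimodular positive definite integer form of rank 24. -/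
structure Hyp (B : Matrix (Fin 24) (Fin 24) ℤ) : Prop where
  hs : B.IsSymm
  hpos : ∀ x : Fin 24 → ℤ, x ≠ 0 → 0 < x ⬝ᵥ (B *ᵥ x)
  heven : ∀ x : Fin 24 → ℤ, (2 : ℤ) ∣ x ⬝ᵥ (B *ᵥ x)
  hdet : B.det = 1

variable {B : Matrix (Fin 24) (Fin 24) ℤ}

/-- The theta function on the upper half plane. -/
noncomputable def thetaFun (B : Matrix (Fin 24) (Fin 24) ℤ) (τ : ℍ) : ℂ := Θ B (-I * (τ : ℂ))

lemma re_w (τ : ℂ) : (-I * τ).re = τ.im := by simp

lemma Hyp.pd (h : Hyp B) : PD (rB B) := rB_pd h.hs h.hpos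

lemma Hyp.Q_nonneg (h : Hyp B) (x : Fin 24 → ℤ) : 0 ≤ Q B x := by
  by_cases hx : x = 0
  · simp [hx, Q]
  · exact (h.hpos x hx).le

lemma thetaFun_S (h : Hyp B) : (thetaFun B ∣[(12 : ℤ)] ModularGroup.S) = thetaFun B := by
  ext z
  rw [SL_slash_apply, UpperHalfPlane.modular_S_smul]
  have hz : (z : ℂ) ≠ 0 := z.ne_zero
  have hw : 0 < (-I * (z : ℂ)).re := by rw [re_w]; exact z.im_pos
  have h1 := Theta_inv h.hs h.hpos h.hdet hw
  have h2 : ((-I * (z : ℂ)) ^ (1 / 2 : ℂ)) ^ 2 = -I * (z : ℂ) := by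
    simp
  have h3 : (((-I * (z : ℂ)) ^ (1 / 2 : ℂ))⁻¹) ^ 24 = ((z : ℂ) ^ 12)⁻¹ := by
    have h4 : (((-I * (z : ℂ)) ^ (1 / 2 : ℂ))⁻¹) ^ 24 = (((-I * (z : ℂ)) ^ (1 / 2 : ℂ)) ^ 2)⁻¹ ^ 12 := by
      rw [inv_pow, inv_pow, ← pow_mul]
    rw [h4, h2, inv_pow, mul_pow]
    have h5 : (-I) ^ 12 = 1 := by
      rw [Even.neg_pow (by decide), show (12 : ℕ) = 4 * 3 by norm_num, pow_mul, I_pow_four, one_pow]
    rw [h5, one_mul]
  have h6 : (-I * (z : ℂ))⁻¹ = -I * ((-(z : ℂ))⁻¹) := by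
    field_simp
    simp
  change Θ B (-I * (-(z : ℂ))⁻¹) * _ = Θ B (-I * (z : ℂ))
  rw [h1, h3, h6, ModularGroup.denom_S, _root_.zpow_neg, zpow_ofNat, mul_comm]

set_option backward.isDefEq.respectTransparency false in
lemma denom_T' (z : ℍ) : denom ModularGroup.T z = 1 := by
  simp [ModularGroup.T, ModularGroup.denom_apply]

lemma thetaFun_T (h : Hyp B) : (thetaFun B ∣[(12 : ℤ)] ModularGroup.T) = thetaFun B := by
  ext z
  rw [SL_slash_apply, modular_T_smul]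
  have h1 : thetaFun B ((1 : ℝ) +ᵥ z) = thetaFun B z := by
    refine tsum_congr fun x => ?_
    obtain ⟨m, hm⟩ := h.heven x
    have h2 : (Q B x : ℂ) = 2 * (m : ℂ) := by
      rw [Q, hm]
      push_cast
      rfl
    rw [h2]
    have h3 : -(π : ℂ) * (-I * (((1 : ℝ) +ᵥ z : ℍ) : ℂ)) * (2 * (m : ℂ))
        = -(π : ℂ) * (-I * (z : ℂ)) * (2 * (m : ℂ)) + (m : ℂ) * (2 * π * I) := by
      rw [UpperHalfPlane.coe_vadd]
      push_cast
      ring
    rw [h3, Complex.exp_add, Complex.exp_int_mul_two_pi_mul_I, mul_one]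
  rw [h1, denom_T']
  simp

lemma norm_F (B : Matrix (Fin 24) (Fin 24) ℤ) (z : ℂ) (x : Fin 24 → ℤ) :
    ‖cexp (-π * (-I * z) * (Q B x : ℂ))‖ = Real.exp (-π * z.im * (Q B x : ℝ)) := by
  rw [norm_term, re_w]

lemma norm_F_le (h : Hyp B) {e : ℝ} {z : ℂ} (hz : e ≤ z.im) (x : Fin 24 → ℤ) :
    ‖cexp (-π * (-I * z) * (Q B x : ℂ))‖ ≤ Real.exp (-π * e * (Q B x : ℝ)) := by
  rw [norm_F]
  apply Real.exp_le_exp.mpr
  have h1 : (0 : ℝ) ≤ (Q B x : ℝ) := by exact_mod_cast h.Q_nonneg x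
  have := Real.pi_pos
  nlinarith [mul_le_mul_of_nonneg_right hz (mul_nonneg this.le h1)]

lemma thetaFun_holo (h : Hyp B) : MDiff (thetaFun B) := by
  rw [UpperHalfPlane.mdifferentiable_iff]
  intro z₀ hz₀
  have hz₀' : 0 < z₀.im := hz₀
  set e := z₀.im / 2 with he
  have he0 : 0 < e := by positivity
  set U : Set ℂ := {z | e < z.im} with hU
  have hUo : IsOpen U := isOpen_lt continuous_const Complex.continuous_im
  have hz₀U : z₀ ∈ U := by
    change e < z₀.im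
    rw [he]
    linarith
  have h1 : DifferentiableOn ℂ (fun z => ∑' x : Fin 24 → ℤ, cexp (-π * (-I * z) * (Q B x : ℂ))) U :=
    differentiableOn_tsum_of_summable_norm (summable_real h.pd he0)
      (fun x => by fun_prop) hUo (fun x z hz => norm_F_le h (le_of_lt hz) x)
  have h2 : (thetaFun B ∘ ofComplex) =ᶠ[𝓝 z₀]
      fun z => ∑' x : Fin 24 → ℤ, cexp (-π * (-I * z) * (Q B x : ℂ)) := by
    filter_upwards [hUo.mem_nhds hz₀U] with z hz
    have hz' : 0 < z.im := he0.trans hz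
    simp only [Function.comp_apply, ofComplex_apply_of_im_pos hz']
    rfl
  exact ((h1.differentiableAt (hUo.mem_nhds hz₀U)).congr_of_eventuallyEq h2).differentiableWithinAt

lemma thetaFun_bdd (h : Hyp B) : IsBoundedAtImInfty (thetaFun B) := by
  rw [isBoundedAtImInfty_iff]
  have hs := summable_real (B := B) h.pd one_pos
  refine ⟨∑' x : Fin 24 → ℤ, Real.exp (-π * 1 * (Q B x : ℝ)), 1, fun z hz => ?_⟩
  exact tsum_of_norm_bounded hs.hasSum fun x => norm_F_le h hz x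

/-- The theta series as a level one modular form of weight 12. -/
noncomputable def thetaForm (h : Hyp B) : ModularForm 𝒮ℒ 12 where
  toFun := thetaFun B
  slash_action_eq' A hA := by
    obtain ⟨A, rfl⟩ := hA
    exact slash_action_generators_SL2Z (thetaFun_S h) (thetaFun_T h) A
  holo' := thetaFun_holo h
  bdd_at_cusps' hc := by
    rw [Subgroup.IsArithmetic.isCusp_iff_isCusp_SL2Z] at hc
    rw [OnePoint.isBoundedAt_iff_forall_SL2Z hc]
    intro γ _
    rw [slash_action_generators_SL2Z (thetaFun_S h) (thetaFun_T h)]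
    exact thetaFun_bdd h

lemma thetaForm_apply (h : Hyp B) (τ : ℍ) : thetaForm h τ = thetaFun B τ := rfl

/-- The number of vectors of norm `2m`. -/
noncomputable def rep (B : Matrix (Fin 24) (Fin 24) ℤ) (m : ℕ) : ℕ :=
  {x : Fin 24 → ℤ | Q B x = 2 * (m : ℤ)}.ncard

lemma fiber_finite (h : Hyp B) (m : ℕ) : {x : Fin 24 → ℤ | Q B x = 2 * (m : ℤ)}.Finite := by
  have hs := summable_real (B := B) h.pd one_pos
  have h1 := hs.tendsto_cofinite_zero
  have h2 := (tendsto_order.1 h1).2 _ (Real.exp_pos (-π * 1 * ((2 * (m : ℤ) : ℤ) : ℝ)))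
  rw [Filter.eventually_cofinite] at h2
  refine h2.subset fun x hx => ?_
  simp only [Set.mem_ofPred_eq] at hx ⊢
  rw [hx]
  exact lt_irrefl _

lemma hasSum_q (h : Hyp B) (τ : ℍ) :
    HasSum (fun m : ℕ => (rep B m : ℂ) • (Function.Periodic.qParam 1 (τ : ℂ)) ^ m) (thetaFun B τ) := by
  have hs := (summable_term (B := B) h.pd (w := -I * (τ : ℂ))
    (by rw [re_w]; exact τ.im_pos)).hasSum
  have h1 := hs.tsum_fiberwise (fun x => (Q B x / 2).toNat)
  have h2 : ∀ m : ℕ, ((fun x : Fin 24 → ℤ => (Q B x / 2).toNat) ⁻¹' {m})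
      = {x : Fin 24 → ℤ | Q B x = 2 * (m : ℤ)} := by
    intro m
    ext x
    simp only [Set.mem_preimage, Set.mem_singleton_iff, Set.mem_ofPred_eq]
    obtain ⟨k, hk⟩ := h.heven x
    have h3 := h.Q_nonneg x
    rw [Q, hk] at h3
    change ((Q B x) / 2).toNat = m ↔ Q B x = _
    rw [Q, hk]
    omega
  have h3 : ∀ m : ℕ, ∑' b : ((fun x : Fin 24 → ℤ => (Q B x / 2).toNat) ⁻¹' {m}),
      cexp (-π * (-I * (τ : ℂ)) * (Q B (b : Fin 24 → ℤ) : ℂ))
      = (rep B m : ℂ) • (Function.Periodic.qParam 1 (τ : ℂ)) ^ m := by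
    intro m
    rw [h2 m]
    have hfin := fiber_finite h m
    let _ := hfin.fintype
    rw [tsum_fintype]
    have h4 : ∀ b : {x : Fin 24 → ℤ | Q B x = 2 * (m : ℤ)},
        cexp (-π * (-I * (τ : ℂ)) * (Q B (b : Fin 24 → ℤ) : ℂ))
          = (Function.Periodic.qParam 1 (τ : ℂ)) ^ m := by
      rintro ⟨b, hb⟩
      have hb' : Q B b = 2 * (m : ℤ) := hb
      rw [hb', Function.Periodic.qParam, ← Complex.exp_nat_mul]
      congr 1
      push_cast
      ring
    rw [Finset.sum_congr rfl (fun b _ => h4 b), Finset.sum_const, rep, Finset.card_univ,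
      ← Nat.card_eq_fintype_card, Nat.card_coe_set_eq, nsmul_eq_mul, smul_eq_mul]
  exact (funext h3) ▸ h1

end Cfsg.Agent.Lib.Theta.Form
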