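import Mathlib.Analysis.SpecialFunctions.Gaussian.PoissonSummation
import Mathlib.Analysis.Complex.Norm
import Mathlib.LinearAlgebra.Matrix.NonsingularInverse
import Mathlib.NumberTheory.ModularForms.JacobiTheta.TwoVariable
import Mathlib.Analysis.Normed.Module.FiniteDimension

set_option autoImplicit false
open Matrix Complex
open scoped Real

namespace Cfsg.Agent.Lib.Theta.Poisson

variable {n : ℕ}

section generic
variable {K : Type*} [Field K]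

/-- First-row vector of a matrix. -/
def cv (A : Matrix (Fin (n+1)) (Fin (n+1)) K) : Fin n → K := fun j => A 0 j.succ

/-- Lower-right block. -/
def br (A : Matrix (Fin (n+1)) (Fin (n+1)) K) : Matrix (Fin n) (Fin n) K :=
  fun i j => A i.succ j.succ

/-- Schur complement of the `(0,0)` entry. -/
def schur (A : Matrix (Fin (n+1)) (Fin (n+1)) K) : Matrix (Fin n) (Fin n) K :=
  fun i j => A i.succ j.succ - A i.succ 0 * A 0 j.succ / A 0 0

lemma form_cons (A : Matrix (Fin (n+1)) (Fin (n+1)) K) (hs : A.IsSymm) (u₀ : K) (u : Fin n → K) :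
    (Fin.cons u₀ u : Fin (n+1) → K) ⬝ᵥ (A *ᵥ Fin.cons u₀ u)
      = A 0 0 * u₀ ^ 2 + 2 * u₀ * (cv A ⬝ᵥ u) + u ⬝ᵥ (br A *ᵥ u) := by
  have h0 : ∀ i : Fin n, A i.succ 0 = A 0 i.succ := fun i => hs.apply _ _
  simp only [dotProduct, mulVec, Fin.sum_univ_succ, Fin.cons_zero, Fin.cons_succ, cv, br, h0,
    mul_add, Finset.sum_add_distrib, Finset.mul_sum]
  have h1 : ∑ x, u x * (A 0 x.succ * u₀) = ∑ x, u₀ * (A 0 x.succ * u x) :=
    Finset.sum_congr rfl fun _ _ => by ring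
  have h2 : ∑ i : Fin n, 2 * u₀ * (A 0 i.succ * u i)
      = ∑ x, u₀ * (A 0 x.succ * u x) + ∑ x, u₀ * (A 0 x.succ * u x) := by
    rw [← Finset.sum_add_distrib]
    exact Finset.sum_congr rfl fun _ _ => by ring
  rw [h1, h2]
  ring

lemma form_schur (A : Matrix (Fin (n+1)) (Fin (n+1)) K) (h0 : A 0 0 ≠ 0) (hs : A.IsSymm)
    (u : Fin n → K) :
    u ⬝ᵥ (schur A *ᵥ u) = u ⬝ᵥ (br A *ᵥ u) - (cv A ⬝ᵥ u) ^ 2 / A 0 0 := by
  have h1 : ∀ i : Fin n, A i.succ 0 = A 0 i.succ := fun i => hs.apply _ _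
  have h2 : (cv A ⬝ᵥ u) ^ 2 = ∑ i, u i * ∑ j, (A 0 i.succ * A 0 j.succ * u j) := by
    simp only [dotProduct, cv, sq, Finset.sum_mul, Finset.mul_sum]
    refine Finset.sum_congr rfl fun i _ => Finset.sum_congr rfl fun j _ => by ring
  rw [h2]
  simp only [dotProduct, mulVec, schur, br, h1, sub_mul, Finset.sum_sub_distrib, mul_sub,
    Finset.sum_div, Finset.mul_sum]
  refine congrArg _ (Finset.sum_congr rfl fun i _ => Finset.sum_congr rfl fun j _ => ?_)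
  field_simp

lemma mulVec_cons_zero (A : Matrix (Fin (n+1)) (Fin (n+1)) K) (u₀ : K) (u : Fin n → K) :
    (A *ᵥ Fin.cons u₀ u) 0 = A 0 0 * u₀ + cv A ⬝ᵥ u := by
  simp [mulVec, dotProduct, Fin.sum_univ_succ, cv]

lemma mulVec_cons_succ (A : Matrix (Fin (n+1)) (Fin (n+1)) K) (u₀ : K) (u : Fin n → K)
    (i : Fin n) :
    (A *ᵥ Fin.cons u₀ u) i.succ = A i.succ 0 * u₀ + (br A *ᵥ u) i := by
  simp [mulVec, dotProduct, Fin.sum_univ_succ, br]

/-- Under `A` symmetric, `z' - z₀ c / a₀ = S u'` where `z = A u`. -/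
lemma schur_mulVec (A : Matrix (Fin (n+1)) (Fin (n+1)) K) (h0 : A 0 0 ≠ 0) (hs : A.IsSymm)
    (u₀ : K) (u : Fin n → K) (i : Fin n) :
    (schur A *ᵥ u) i
      = (A *ᵥ Fin.cons u₀ u) i.succ - (A *ᵥ Fin.cons u₀ u) 0 * cv A i / A 0 0 := by
  have h1 : A i.succ 0 = A 0 i.succ := hs.apply _ _
  rw [mulVec_cons_zero, mulVec_cons_succ]
  have h2 : (schur A *ᵥ u) i = (br A *ᵥ u) i - (cv A ⬝ᵥ u) * cv A i / A 0 0 := by
    simp only [mulVec, dotProduct, schur, br, cv, h1, sub_mul, Finset.sum_sub_distrib,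
      Finset.sum_mul, Finset.sum_div]
    refine congrArg _ (Finset.sum_congr rfl fun j _ => ?_)
    field_simp
  rw [h2, h1]
  simp only [cv]
  field_simp
  ring

/-- Left inverses of Schur complements. -/
lemma br_mul_schur (A A' : Matrix (Fin (n+1)) (Fin (n+1)) K) (h0 : A 0 0 ≠ 0)
    (h : A' * A = 1) : br A' * schur A = 1 := by
  ext i j
  have h1 := congrFun (congrFun h i.succ) j.succ
  have h2 := congrFun (congrFun h i.succ) 0
  simp only [mul_apply, Fin.sum_univ_succ, one_apply] at h1 h2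
  simp only [Fin.succ_inj, Fin.succ_ne_zero, if_false] at h1 h2
  rw [mul_apply, one_apply, ← h1]
  simp only [br, schur, mul_sub, Finset.sum_sub_distrib]
  have h3 : ∑ x : Fin n, A' i.succ x.succ * (A x.succ 0 * A 0 j.succ / A 0 0)
      = (∑ x : Fin n, A' i.succ x.succ * A x.succ 0) * A 0 j.succ / A 0 0 := by
    rw [Finset.sum_mul, Finset.sum_div]
    refine Finset.sum_congr rfl fun _ _ => by ring
  rw [h3, eq_neg_of_add_eq_zero_right h2]
  field_simp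
  ring

end generic


section ordered

variable {K : Type*} [Field K] [LinearOrder K] [IsStrictOrderedRing K]

/-- Positive definiteness over an ordered field. -/
def PD (A : Matrix (Fin n) (Fin n) K) : Prop := ∀ x : Fin n → K, x ≠ 0 → 0 < x ⬝ᵥ (A *ᵥ x)

lemma PD.entry_pos {A : Matrix (Fin (n+1)) (Fin (n+1)) K} (h : PD A) (hs : A.IsSymm) :
    0 < A 0 0 := by
  have h1 := h (Fin.cons 1 0) (by
    intro h0
    have := congrFun h0 0
    simp at this)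
  rw [form_cons A hs] at h1
  simpa using h1

lemma PD.schur {A : Matrix (Fin (n+1)) (Fin (n+1)) K} (h : PD A) (hs : A.IsSymm) :
    PD (schur A) := by
  intro x hx
  have h0 := h.entry_pos hs
  have h1 := h (Fin.cons (-(cv A ⬝ᵥ x) / A 0 0) x) (by
    intro h0
    apply hx
    funext i
    have := congrFun h0 i.succ
    simpa using this)
  rw [form_cons A hs] at h1
  rw [form_schur A h0.ne' hs]
  have : A 0 0 * (-(cv A ⬝ᵥ x) / A 0 0) ^ 2 + 2 * (-(cv A ⬝ᵥ x) / A 0 0) * (cv A ⬝ᵥ x)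
      = - (cv A ⬝ᵥ x) ^ 2 / A 0 0 := by
    field_simp
    ring
  linarith [this, neg_div (A 0 0) ((cv A ⬝ᵥ x) ^ 2)]

lemma schur_isSymm {A : Matrix (Fin (n+1)) (Fin (n+1)) K} (hs : A.IsSymm) :
    (schur A).IsSymm := by
  ext i j
  simp only [transpose_apply, schur]
  rw [hs.apply i.succ j.succ, hs.apply 0 j.succ, hs.apply i.succ 0]
  ring

lemma inv_isSymm {A A' : Matrix (Fin n) (Fin n) K} (hs : A.IsSymm) (h : A' * A = 1) :
    A'.IsSymm := by
  have h1 : A * A'ᵀ = 1 := by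
    have := congrArg transpose h
    rwa [transpose_mul, hs.eq, transpose_one] at this
  exact (left_inv_eq_right_inv h h1).symm

lemma PD.inv {A A' : Matrix (Fin n) (Fin n) K} (h : PD A) (hi : A' * A = 1) :
    PD A' := by
  intro x hx
  have hi' : A * A' = 1 := mul_eq_one_comm.mp hi
  have hne : A' *ᵥ x ≠ 0 := by
    intro h0
    apply hx
    have := congrArg (A *ᵥ ·) h0
    simpa [mulVec_mulVec, hi'] using this
  have := h _ hne
  rw [mulVec_mulVec, hi', one_mulVec, dotProduct_comm] at this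
  exact this

end ordered

section real

/-- Positive definiteness transfers from `ℚ` to `ℝ`. -/
lemma pd_map_real : ∀ {n : ℕ} {A : Matrix (Fin n) (Fin n) ℚ}, A.IsSymm → PD A →
    PD (A.map (fun q : ℚ => (q : ℝ))) := by
  intro n
  induction n with
  | zero =>
    intro A _ _ x hx
    exact absurd (Subsingleton.elim x 0) hx
  | succ n ih =>
    intro A hs h x hx
    have h0 : 0 < A 0 0 := h.entry_pos hs
    have h0' : (0 : ℝ) < (A 0 0 : ℝ) := by exact_mod_cast h0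
    have hS := ih (schur_isSymm hs) (h.schur hs)
    set R : Matrix (Fin (n+1)) (Fin (n+1)) ℝ := A.map (fun q : ℚ => (q : ℝ)) with hR
    have hRs : R.IsSymm := by
      ext i j
      simp [hR, hs.apply]
    have hRS : schur R = (schur A).map (fun q : ℚ => (q : ℝ)) := by
      ext i j
      simp [hR, schur]
    have hR0 : R 0 0 = (A 0 0 : ℝ) := rfl
    have hx' : (Fin.cons (x 0) (Fin.tail x) : Fin (n+1) → ℝ) = x := Fin.cons_self_tail x
    rw [← hx', form_cons R hRs]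
    have h1 := form_schur R (by rw [hR0]; exact h0'.ne') hRs (Fin.tail x)
    by_cases ht : Fin.tail x = 0
    · have hx0 : x 0 ≠ 0 := by
        intro h00
        apply hx
        rw [← hx', h00, ht]
        funext i
        refine Fin.cases ?_ (fun j => ?_) i <;> simp
      rw [ht]
      simp only [dotProduct_zero, mul_zero, mulVec_zero, add_zero]
      rw [hR0]
      positivity
    · have h2 := hS _ ht
      rw [← hRS, h1] at h2
      rw [hR0] at h2 ⊢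
      have h3 : (A 0 0 : ℝ) * x 0 ^ 2 + 2 * x 0 * (cv R ⬝ᵥ Fin.tail x)
          + (cv R ⬝ᵥ Fin.tail x) ^ 2 / (A 0 0 : ℝ)
          = (A 0 0 : ℝ) * (x 0 + (cv R ⬝ᵥ Fin.tail x) / (A 0 0 : ℝ)) ^ 2 := by
        field_simp
        ring
      have h4 : 0 ≤ (A 0 0 : ℝ) * (x 0 + (cv R ⬝ᵥ Fin.tail x) / (A 0 0 : ℝ)) ^ 2 := by positivity
      linarith

lemma PD.exists_lower {A : Matrix (Fin n) (Fin n) ℝ} (h : PD A) :
    ∃ l : ℝ, 0 < l ∧ ∀ x : Fin n → ℝ, l * ∑ i, x i ^ 2 ≤ x ⬝ᵥ (A *ᵥ x) := by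
  have hc : Continuous fun x : Fin n → ℝ => x ⬝ᵥ (A *ᵥ x) := by
    simp only [dotProduct, mulVec]
    fun_prop
  have hform : ∀ (r : ℝ) (x : Fin n → ℝ), (r • x) ⬝ᵥ (A *ᵥ (r • x)) = r ^ 2 * (x ⬝ᵥ (A *ᵥ x)) := by
    intro r x
    rw [mulVec_smul, smul_dotProduct, dotProduct_smul, smul_eq_mul, smul_eq_mul]
    ring
  rcases (Metric.sphere (0 : Fin n → ℝ) 1).eq_empty_or_nonempty with he | hne
  · refine ⟨1, one_pos, fun x => ?_⟩
    by_cases hx : x = 0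
    · simp [hx]
    · exfalso
      have hr : ‖x‖ ≠ 0 := norm_ne_zero_iff.mpr hx
      have : ‖x‖⁻¹ • x ∈ Metric.sphere (0 : Fin n → ℝ) 1 := by
        simp [norm_smul, hr]
      rw [he] at this
      exact this
  · obtain ⟨x₀, hx₀, hmin⟩ := (isCompact_sphere (0 : Fin n → ℝ) 1).exists_isMinOn hne hc.continuousOn
    have hx₀ne : x₀ ≠ 0 := by
      rintro rfl
      simp at hx₀
    have hpos := h x₀ hx₀ne
    set m := x₀ ⬝ᵥ (A *ᵥ x₀) with hm
    have hN : (0 : ℝ) < (n : ℝ) + 1 := by positivity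
    refine ⟨m / ((n : ℝ) + 1), by positivity, fun x => ?_⟩
    by_cases hx : x = 0
    · simp [hx]
    have hr : 0 < ‖x‖ := norm_pos_iff.mpr hx
    have hy : ‖x‖⁻¹ • x ∈ Metric.sphere (0 : Fin n → ℝ) 1 := by
      simp [norm_smul, hr.ne']
    have h1 : m ≤ (‖x‖⁻¹ • x) ⬝ᵥ (A *ᵥ (‖x‖⁻¹ • x)) := hmin hy
    rw [hform] at h1
    have h2 : ‖x‖ ^ 2 * m ≤ x ⬝ᵥ (A *ᵥ x) := by
      have h3 := mul_le_mul_of_nonneg_left h1 (sq_nonneg ‖x‖)
      have h4 : ‖x‖ ^ 2 * (‖x‖⁻¹ ^ 2 * x ⬝ᵥ (A *ᵥ x)) = x ⬝ᵥ (A *ᵥ x) := by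
        field_simp
      linarith
    have h5 : ∑ i, x i ^ 2 ≤ (n : ℝ) * ‖x‖ ^ 2 := by
      calc ∑ i, x i ^ 2 ≤ ∑ _i : Fin n, ‖x‖ ^ 2 := by
            refine Finset.sum_le_sum fun i _ => ?_
            have := norm_le_pi_norm x i
            rw [Real.norm_eq_abs] at this
            rw [← sq_abs (x i)]
            exact pow_le_pow_left₀ (abs_nonneg _) this 2
        _ = (n : ℝ) * ‖x‖ ^ 2 := by simp
    calc m / ((n : ℝ) + 1) * ∑ i, x i ^ 2 ≤ m / ((n : ℝ) + 1) * ((n : ℝ) * ‖x‖ ^ 2) := by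
          gcongr
      _ ≤ ‖x‖ ^ 2 * m := by
          rw [div_mul_eq_mul_div, div_le_iff₀ hN]
          nlinarith [sq_nonneg ‖x‖, mul_nonneg (sq_nonneg ‖x‖) hpos.le]
      _ ≤ _ := h2

end real

section summable

lemma summable_real_quad {d : ℝ} (hd : 0 < d) (β : ℝ) :
    Summable fun k : ℤ => Real.exp (-d * (k : ℝ) ^ 2 + 2 * π * β * k) := by
  have h := ((summable_jacobiTheta₂_term_iff (-(β : ℂ) * I) (((d / π : ℝ) : ℂ) * I)).mpr
    (by simpa using div_pos hd Real.pi_pos)).norm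
  refine h.congr fun k => ?_
  rw [norm_jacobiTheta₂_term]
  simp only [mul_im, ofReal_re, I_im, mul_one, ofReal_im, I_re, mul_zero, add_zero, neg_re,
    neg_im, neg_zero, zero_mul, sub_zero, zero_add, neg_mul, neg_neg]
  congr 1
  field_simp
  ring

lemma summable_cons_prod {m : ℕ} (f : Fin m → ℤ → ℝ) (hf : ∀ i, Summable (f i))
    (h0 : ∀ i k, 0 ≤ f i k) : Summable fun x : Fin m → ℤ => ∏ i, f i (x i) := by
  induction m with
  | zero => exact (hasSum_fintype _).summable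
  | succ m ih =>
    have h1 := ih (fun i => f i.succ) (fun i => hf _) (fun i k => h0 _ _)
    have h2 := (hf 0).mul_of_nonneg h1 (h0 0) (fun x => Finset.prod_nonneg fun i _ => h0 _ _)
    rw [← (Fin.consEquiv (fun _ : Fin (m+1) => ℤ)).summable_iff]
    refine h2.congr fun p => ?_
    simp [Fin.prod_univ_succ, Fin.consEquiv]

lemma tsum_cons {m : ℕ} {f : (Fin (m+1) → ℤ) → ℂ} (hf : Summable f) :
    ∑' x, f x = ∑' x₀ : ℤ, ∑' x' : Fin m → ℤ, f (Fin.cons x₀ x') := by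
  rw [← (Fin.consEquiv (fun _ : Fin (m+1) => ℤ)).tsum_eq f]
  exact ((Fin.consEquiv (fun _ : Fin (m+1) => ℤ)).summable_iff.mpr hf).tsum_prod

lemma tsum_cons' {m : ℕ} {f : (Fin (m+1) → ℤ) → ℂ} (hf : Summable f) :
    ∑' x, f x = ∑' x' : Fin m → ℤ, ∑' x₀ : ℤ, f (Fin.cons x₀ x') := by
  rw [← (Fin.consEquiv (fun _ : Fin (m+1) => ℤ)).tsum_eq f]
  have h := (Fin.consEquiv (fun _ : Fin (m+1) => ℤ)).summable_iff.mpr hf
  rw [← (Equiv.prodComm _ _).tsum_eq]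
  exact ((Equiv.prodComm _ _).summable_iff.mpr h).tsum_prod

end summable

section complex

/-- Complexification of a real matrix. -/
def cplx (A : Matrix (Fin n) (Fin n) ℝ) : Matrix (Fin n) (Fin n) ℂ := fun i j => (A i j : ℂ)

lemma cplx_mul (A B : Matrix (Fin n) (Fin n) ℝ) : cplx (A * B) = cplx A * cplx B := by
  ext i j
  simp [cplx, mul_apply]

lemma cplx_one : cplx (1 : Matrix (Fin n) (Fin n) ℝ) = 1 := by
  ext i j
  simp only [cplx, one_apply]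
  split_ifs <;> simp

lemma cplx_schur (A : Matrix (Fin (n+1)) (Fin (n+1)) ℝ) : schur (cplx A) = cplx (schur A) := by
  ext i j
  simp [cplx, schur]

lemma cplx_br (A : Matrix (Fin (n+1)) (Fin (n+1)) ℝ) : br (cplx A) = cplx (br A) := rfl

lemma cplx_isSymm {A : Matrix (Fin n) (Fin n) ℝ} (h : A.IsSymm) : (cplx A).IsSymm := by
  ext i j
  simp [cplx, h.apply]

/-- The complexified quadratic form. -/
def Qc (A : Matrix (Fin n) (Fin n) ℝ) (z : Fin n → ℂ) : ℂ := z ⬝ᵥ (cplx A *ᵥ z)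

/-- Cast of an integer vector. -/
def ci (x : Fin n → ℤ) : Fin n → ℂ := fun i => (x i : ℂ)

/-- Cast of an integer vector to reals. -/
def ri (x : Fin n → ℤ) : Fin n → ℝ := fun i => (x i : ℝ)

lemma ci_cons (x₀ : ℤ) (x : Fin n → ℤ) :
    ci (Fin.cons x₀ x : Fin (n+1) → ℤ) = Fin.cons (x₀ : ℂ) (ci x) := by
  funext i
  refine Fin.cases ?_ (fun j => ?_) i <;> simp [ci]

lemma Qc_ci (A : Matrix (Fin n) (Fin n) ℝ) (x : Fin n → ℤ) :
    Qc A (ci x) = ((ri x ⬝ᵥ (A *ᵥ ri x) : ℝ) : ℂ) := by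
  simp [Qc, ci, ri, cplx, dotProduct, mulVec]

/-- Gaussian term. -/
noncomputable def gterm (A : Matrix (Fin n) (Fin n) ℝ) (w : ℂ) (b : Fin n → ℂ) (x : Fin n → ℤ) : ℂ :=
  cexp (-π * w * Qc A (ci x) + 2 * π * (b ⬝ᵥ ci x))

/-- Dual Gaussian term. -/
noncomputable def hterm (A' : Matrix (Fin n) (Fin n) ℝ) (w : ℂ) (b : Fin n → ℂ) (y : Fin n → ℤ) : ℂ :=
  cexp (-π / w * Qc A' (ci y + I • b))

lemma summable_gterm {A : Matrix (Fin n) (Fin n) ℝ} (h : PD A) {w : ℂ} (hw : 0 < w.re)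
    (b : Fin n → ℂ) : Summable (gterm A w b) := by
  obtain ⟨l, hl, hlow⟩ := h.exists_lower
  have hd : 0 < π * w.re * l := by positivity
  have h1 := summable_cons_prod (fun i k => Real.exp (-(π * w.re * l) * (k : ℝ) ^ 2
      + 2 * π * (b i).re * k)) (fun i => summable_real_quad hd _)
      (fun i k => (Real.exp_pos _).le)
  refine Summable.of_norm_bounded h1 fun x => ?_
  rw [gterm, Complex.norm_exp, ← Real.exp_sum]
  apply Real.exp_le_exp.mpr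
  rw [Qc_ci]
  have h2 : (-(π : ℂ) * w * ((ri x ⬝ᵥ (A *ᵥ ri x) : ℝ) : ℂ) + 2 * π * (b ⬝ᵥ ci x)).re
      = -π * w.re * (ri x ⬝ᵥ (A *ᵥ ri x)) + 2 * π * ∑ i, (b i).re * (x i : ℝ) := by
    have h3 : (b ⬝ᵥ ci x).re = ∑ i, (b i).re * (x i : ℝ) := by
      simp [dotProduct, ci, Complex.re_sum]
    have h4 : (2 * (π : ℂ) * (b ⬝ᵥ ci x)).re = 2 * π * (b ⬝ᵥ ci x).re := by
      rw [show (2 * (π : ℂ)) = ((2 * π : ℝ) : ℂ) by push_cast; rfl, Complex.re_ofReal_mul]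
    have h5 : (-(π : ℂ) * w * ((ri x ⬝ᵥ (A *ᵥ ri x) : ℝ) : ℂ)).re
        = -π * w.re * (ri x ⬝ᵥ (A *ᵥ ri x)) := by
      rw [Complex.re_mul_ofReal, show (-(π : ℂ) * w) = ((-π : ℝ) : ℂ) * w by push_cast; rfl,
        Complex.re_ofReal_mul]
    rw [Complex.add_re, h4, h5, h3]
  rw [h2, Finset.sum_add_distrib, Finset.mul_sum]
  have h6 := hlow (ri x)
  have h7 : ∑ i, -(π * w.re * l) * (x i : ℝ) ^ 2 = -(π * w.re) * (l * ∑ i, (ri x i) ^ 2) := by
    rw [Finset.mul_sum, Finset.mul_sum]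
    refine Finset.sum_congr rfl fun i _ => ?_
    simp only [ri]
    ring
  have h8 : ∑ i, 2 * π * ((b i).re * (x i : ℝ)) = ∑ i, 2 * π * (b i).re * (x i : ℝ) :=
    Finset.sum_congr rfl fun i _ => by ring
  rw [h7, h8]
  have h9 : 0 < π * w.re := by positivity
  nlinarith [mul_le_mul_of_nonneg_left h6 h9.le]

lemma inv_re_pos {w : ℂ} (hw : 0 < w.re) : 0 < (w⁻¹).re := by
  rw [Complex.inv_re]
  refine div_pos hw (Complex.normSq_pos.mpr ?_)
  rintro rfl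
  simp at hw

lemma Qc_add_I {A' : Matrix (Fin n) (Fin n) ℝ} (hs : A'.IsSymm) (y b : Fin n → ℂ) :
    Qc A' (y + I • b) = Qc A' y + 2 * I * ((cplx A' *ᵥ b) ⬝ᵥ y) - Qc A' b := by
  have h1 : b ⬝ᵥ (cplx A' *ᵥ y) = (cplx A' *ᵥ b) ⬝ᵥ y := by
    rw [dotProduct_mulVec, ← mulVec_transpose, (cplx_isSymm hs).eq]
  simp only [Qc, mulVec_add, mulVec_smul, add_dotProduct, dotProduct_add, smul_dotProduct,
    dotProduct_smul, smul_eq_mul, h1]
  have hI : I * I = -1 := I_mul_I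
  rw [dotProduct_comm y (cplx A' *ᵥ b)]
  linear_combination (b ⬝ᵥ (cplx A' *ᵥ b)) * hI

lemma summable_hterm {A' : Matrix (Fin n) (Fin n) ℝ} (h : PD A') (hs : A'.IsSymm) {w : ℂ}
    (hw : 0 < w.re) (b : Fin n → ℂ) : Summable (hterm A' w b) := by
  have h1 := (summable_gterm h (inv_re_pos hw) (-(I / w) • (cplx A' *ᵥ b))).mul_right
    (cexp (π / w * Qc A' b))
  refine h1.congr fun y => ?_
  have hw0 : w ≠ 0 := by
    rintro rfl
    simp at hw
  rw [gterm, hterm, ← Complex.exp_add, Qc_add_I hs, smul_dotProduct, smul_eq_mul]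
  congr 1
  field_simp
  ring

lemma Qc_cons {A A' : Matrix (Fin (n+1)) (Fin (n+1)) ℝ} (hs : A.IsSymm) (ha : A 0 0 ≠ 0)
    (hi : A' * A = 1) (z₀ : ℂ) (z : Fin n → ℂ) :
    Qc A' (Fin.cons z₀ z) = z₀ ^ 2 / (A 0 0 : ℂ)
      + Qc (br A') (z - (z₀ / (A 0 0 : ℂ)) • cv (cplx A)) := by
  have ha' : cplx A 0 0 ≠ 0 := by simpa [cplx] using ha
  have hsM := cplx_isSymm hs
  have hM : cplx A' * cplx A = 1 := by rw [← cplx_mul, hi, cplx_one]
  have hM' : cplx A * cplx A' = 1 := mul_eq_one_comm.mp hM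
  set u : Fin (n+1) → ℂ := cplx A' *ᵥ Fin.cons z₀ z with hu
  have hz : cplx A *ᵥ u = Fin.cons z₀ z := by
    rw [hu, mulVec_mulVec, hM', one_mulVec]
  have hu' : (Fin.cons (u 0) (Fin.tail u) : Fin (n+1) → ℂ) = u := Fin.cons_self_tail u
  have h1 : z - (z₀ / (A 0 0 : ℂ)) • cv (cplx A) = schur (cplx A) *ᵥ Fin.tail u := by
    funext i
    rw [schur_mulVec (cplx A) ha' hsM (u 0) (Fin.tail u) i, hu', hz]
    simp [cplx]
    ring
  have h2 : Qc (br A') (schur (cplx A) *ᵥ Fin.tail u)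
      = Fin.tail u ⬝ᵥ (schur (cplx A) *ᵥ Fin.tail u) := by
    rw [Qc, ← cplx_br, mulVec_mulVec, br_mul_schur _ _ ha' hM, one_mulVec, dotProduct_comm]
  have h3 := form_schur (cplx A) ha' hsM (Fin.tail u)
  have h4 : Qc A' (Fin.cons z₀ z) = u ⬝ᵥ (cplx A *ᵥ u) := by
    rw [Qc, ← hu, hz, dotProduct_comm]
  have h5 := form_cons (cplx A) hsM (u 0) (Fin.tail u)
  rw [hu'] at h5
  have h6 := mulVec_cons_zero (cplx A) (u 0) (Fin.tail u)
  rw [hu', hz, Fin.cons_zero] at h6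
  rw [h1, h2, h3, h4, h5, h6]
  have h7 : cplx A 0 0 = (A 0 0 : ℂ) := rfl
  rw [h7]
  have ha2 : (A 0 0 : ℂ) ≠ 0 := by simpa using ha
  field_simp
  ring

lemma gterm_split {A : Matrix (Fin (n+1)) (Fin (n+1)) ℝ} (hs : A.IsSymm) (w : ℂ)
    (b : Fin (n+1) → ℂ) (x₀ : ℤ) (x : Fin n → ℤ) :
    gterm A w b (Fin.cons x₀ x)
      = cexp (-π * (w * (A 0 0 : ℂ)) * (x₀ : ℂ) ^ 2
          + 2 * π * (b 0 - w * (cv (cplx A) ⬝ᵥ ci x)) * (x₀ : ℂ))
        * gterm (br A) w (Fin.tail b) x := by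
  have h1 : Qc A (ci (Fin.cons x₀ x)) = (A 0 0 : ℂ) * (x₀ : ℂ) ^ 2
      + 2 * (x₀ : ℂ) * (cv (cplx A) ⬝ᵥ ci x) + Qc (br A) (ci x) := by
    rw [ci_cons, Qc, form_cons (cplx A) (cplx_isSymm hs)]
    rfl
  have h2 : b ⬝ᵥ ci (Fin.cons x₀ x) = b 0 * (x₀ : ℂ) + Fin.tail b ⬝ᵥ ci x := by
    rw [ci_cons]
    simp [dotProduct, Fin.sum_univ_succ, Fin.tail]
  rw [gterm, gterm, ← Complex.exp_add, h1, h2]
  congr 1
  ring

/-- The combined term after applying Poisson in the first variable. -/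
noncomputable def tterm (A : Matrix (Fin (n+1)) (Fin (n+1)) ℝ) (w : ℂ) (b : Fin (n+1) → ℂ)
    (x : Fin n → ℤ) (y₀ : ℤ) : ℂ :=
  gterm (br A) w (Fin.tail b) x
    * cexp (-π / (w * (A 0 0 : ℂ)) * ((y₀ : ℂ) + I * (b 0 - w * (cv (cplx A) ⬝ᵥ ci x))) ^ 2)

lemma inner_sum {A : Matrix (Fin (n+1)) (Fin (n+1)) ℝ} (hs : A.IsSymm) (ha : 0 < A 0 0)
    {w : ℂ} (hw : 0 < w.re) (b : Fin (n+1) → ℂ) (x : Fin n → ℤ) :
    ∑' x₀ : ℤ, gterm A w b (Fin.cons x₀ x)
      = 1 / (w * (A 0 0 : ℂ)) ^ (1 / 2 : ℂ) * ∑' y₀ : ℤ, tterm A w b x y₀ := by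
  have hre : 0 < (w * (A 0 0 : ℂ)).re := by
    rw [Complex.re_mul_ofReal]
    positivity
  simp_rw [gterm_split hs, tterm]
  rw [tsum_mul_right, tsum_mul_left, Complex.tsum_exp_neg_quadratic hre]
  ring

/-- Linear term after the Poisson step in the first variable. -/
noncomputable def bb (A : Matrix (Fin (n+1)) (Fin (n+1)) ℝ) (b : Fin (n+1) → ℂ) (y₀ : ℤ) :
    Fin n → ℂ :=
  Fin.tail b + (I * ((y₀ : ℂ) + I * b 0) / (A 0 0 : ℂ)) • cv (cplx A)

/-- Gaussian factor in the dual first variable. -/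
noncomputable def t₂ (A : Matrix (Fin (n+1)) (Fin (n+1)) ℝ) (w : ℂ) (b : Fin (n+1) → ℂ)
    (y₀ : ℤ) : ℂ :=
  cexp (-π / (w * (A 0 0 : ℂ)) * ((y₀ : ℂ) + I * b 0) ^ 2)

lemma tterm_eq {A : Matrix (Fin (n+1)) (Fin (n+1)) ℝ} (hs : A.IsSymm) (ha : 0 < A 0 0)
    {w : ℂ} (hw : 0 < w.re) (b : Fin (n+1) → ℂ) (x : Fin n → ℤ) (y₀ : ℤ) :
    tterm A w b x y₀ = gterm (schur A) w (bb A b y₀) x * t₂ A w b y₀ := by
  have hw0 : w ≠ 0 := by
    rintro rfl
    simp at hw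
  have ha2 : (A 0 0 : ℂ) ≠ 0 := by simpa using ha.ne'
  have ha' : cplx A 0 0 ≠ 0 := ha2
  have h1 : Qc (schur A) (ci x) = Qc (br A) (ci x)
      - (cv (cplx A) ⬝ᵥ ci x) ^ 2 / (A 0 0 : ℂ) := by
    rw [Qc, ← cplx_schur, form_schur _ ha' (cplx_isSymm hs)]
    rfl
  have h2 : bb A b y₀ ⬝ᵥ ci x = Fin.tail b ⬝ᵥ ci x
      + (I * ((y₀ : ℂ) + I * b 0) / (A 0 0 : ℂ)) * (cv (cplx A) ⬝ᵥ ci x) := by
    rw [bb, add_dotProduct, smul_dotProduct, smul_eq_mul]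
  rw [tterm, gterm, gterm, t₂, ← Complex.exp_add, ← Complex.exp_add, h1, h2]
  congr 1
  have hI : I ^ 2 = -1 := I_sq
  field_simp
  ring_nf
  simp only [hI]
  ring

lemma summable_t₂ {A : Matrix (Fin (n+1)) (Fin (n+1)) ℝ} (ha : 0 < A 0 0) {w : ℂ}
    (hw : 0 < w.re) (b : Fin (n+1) → ℂ) : Summable (t₂ A w b) := by
  have hre : 0 < (w * (A 0 0 : ℂ)).re := by
    rw [Complex.re_mul_ofReal]
    positivity
  have hne : w * (A 0 0 : ℂ) ≠ 0 := by
    intro h0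
    rw [h0] at hre
    simp at hre
  have h1 := ((summable_jacobiTheta₂_term_iff (-(w * (A 0 0 : ℂ))⁻¹ * b 0)
    (I * (w * (A 0 0 : ℂ))⁻¹)).mpr (by simpa using inv_re_pos hre)).mul_right
    (cexp (π * (w * (A 0 0 : ℂ))⁻¹ * b 0 ^ 2))
  refine h1.congr fun y => ?_
  rw [t₂, jacobiTheta₂_term, ← Complex.exp_add]
  congr 1
  have hI : I ^ 2 = -1 := I_sq
  field_simp
  ring_nf
  simp only [hI]
  ring

lemma summable_tterm {A : Matrix (Fin (n+1)) (Fin (n+1)) ℝ} (hs : A.IsSymm) (hpd : PD A)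
    {w : ℂ} (hw : 0 < w.re) (b : Fin (n+1) → ℂ) :
    Summable (Function.uncurry (tterm A w b)) := by
  have ha := hpd.entry_pos hs
  have ha2 : (A 0 0 : ℂ) ≠ 0 := by simpa using ha.ne'
  have h1 := (summable_gterm (hpd.schur hs) hw (Fin.tail b - (b 0 / (A 0 0 : ℂ)) • cv (cplx A))).norm
  have h2 := (summable_t₂ ha hw b).norm
  have h3 := h1.mul_of_nonneg h2 (fun _ => norm_nonneg _) (fun _ => norm_nonneg _)
  refine Summable.of_norm (h3.congr fun p => ?_)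
  obtain ⟨x, y₀⟩ := p
  simp only [Function.uncurry]
  rw [tterm_eq hs ha hw, norm_mul]
  congr 1
  rw [gterm, gterm, Complex.norm_exp, Complex.norm_exp]
  congr 1
  have h4 : bb A b y₀ ⬝ᵥ ci x = (Fin.tail b - (b 0 / (A 0 0 : ℂ)) • cv (cplx A)) ⬝ᵥ ci x
      + I * (((y₀ : ℝ) / A 0 0 * ∑ j, A 0 j.succ * (x j : ℝ) : ℝ) : ℂ) := by
    have h5 : cv (cplx A) ⬝ᵥ ci x = ((∑ j, A 0 j.succ * (x j : ℝ) : ℝ) : ℂ) := by
      simp [cv, cplx, ci, dotProduct]
    rw [bb, add_dotProduct, sub_dotProduct, smul_dotProduct, smul_dotProduct, smul_eq_mul,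
      smul_eq_mul, h5]
    have hI : I * I = -1 := I_mul_I
    push_cast
    field_simp
    ring_nf
    simp only [I_sq]
    ring
  have h6 : (2 * (π : ℂ) * (I * (((y₀ : ℝ) / A 0 0 * ∑ j, A 0 j.succ * (x j : ℝ) : ℝ) : ℂ))).re
      = 0 := by
    rw [← mul_assoc, show 2 * (π : ℂ) * I = ((2 * π : ℝ) : ℂ) * I by push_cast; rfl,
      mul_assoc, re_ofReal_mul]
    simp
  rw [h4, mul_add]
  simp only [add_re, h6, add_zero]

lemma hterm_cons {A A' : Matrix (Fin (n+1)) (Fin (n+1)) ℝ} (hs : A.IsSymm) (ha : 0 < A 0 0)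
    (hi : A' * A = 1) {w : ℂ} (hw : 0 < w.re) (b : Fin (n+1) → ℂ) (y₀ : ℤ) (y : Fin n → ℤ) :
    t₂ A w b y₀ * hterm (br A') w (bb A b y₀) y = hterm A' w b (Fin.cons y₀ y) := by
  have hw0 : w ≠ 0 := by
    rintro rfl
    simp at hw
  have ha2 : (A 0 0 : ℂ) ≠ 0 := by simpa using ha.ne'
  have h1 : ci (Fin.cons y₀ y : Fin (n+1) → ℤ) + I • b
      = Fin.cons ((y₀ : ℂ) + I * b 0) (ci y + I • Fin.tail b) := by
    funext i
    refine Fin.cases ?_ (fun j => ?_) i <;> simp [ci, Fin.tail]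
  have h2 : ci y + I • bb A b y₀
      = (ci y + I • Fin.tail b) - (((y₀ : ℂ) + I * b 0) / (A 0 0 : ℂ)) • cv (cplx A) := by
    funext j
    simp only [bb, Pi.add_apply, Pi.smul_apply, Pi.sub_apply, smul_eq_mul]
    have hI : I * I = -1 := I_mul_I
    linear_combination (((y₀ : ℂ) + I * b 0) / (A 0 0 : ℂ) * cv (cplx A) j) * hI
  rw [t₂, hterm, hterm, ← Complex.exp_add, h1, Qc_cons hs ha.ne' hi, h2]
  congr 1
  field_simp
  ring

lemma cpow_half_mul {w : ℂ} (hw : w ≠ 0) {a : ℝ} (ha : 0 < a) (s : ℂ) :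
    (w * (a : ℂ)) ^ s = (a : ℂ) ^ s * w ^ s := by
  have ha2 : (a : ℂ) ≠ 0 := by simpa using ha.ne'
  rw [mul_comm w, Complex.cpow_def_of_ne_zero (mul_ne_zero ha2 hw),
    Complex.cpow_def_of_ne_zero ha2, Complex.cpow_def_of_ne_zero hw, ← Complex.exp_add,
    Complex.log_ofReal_mul ha hw, Complex.ofReal_log ha.le]
  ring_nf

/-- **Poisson summation for Gaussians of positive definite real forms on `ℤⁿ`**, with unspecified
constant depending only on the form. -/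
theorem poisson : ∀ (n : ℕ) (A A' : Matrix (Fin n) (Fin n) ℝ), A.IsSymm → PD A → A' * A = 1 →
    ∃ C : ℂ, ∀ w : ℂ, 0 < w.re → ∀ b : Fin n → ℂ,
      ∑' x, gterm A w b x = C * ((w ^ (1 / 2 : ℂ))⁻¹) ^ n * ∑' y, hterm A' w b y := by
  intro n
  induction n with
  | zero =>
    intro A A' _ _ _
    refine ⟨1, fun w _ b => ?_⟩
    have h1 : ∀ f : (Fin 0 → ℤ) → ℂ, ∑' x, f x = f 0 := fun f =>
      tsum_eq_single 0 (fun x hx => absurd (Subsingleton.elim x 0) hx)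
    rw [h1, h1]
    simp [gterm, hterm, Qc, dotProduct]
  | succ n ih =>
    intro A A' hs hpd hi
    have ha : 0 < A 0 0 := hpd.entry_pos hs
    obtain ⟨CS, hCS⟩ := ih (schur A) (br A') (schur_isSymm hs) (hpd.schur hs)
      (br_mul_schur A A' ha.ne' hi)
    refine ⟨(((A 0 0 : ℝ) : ℂ) ^ (1 / 2 : ℂ))⁻¹ * CS, fun w hw b => ?_⟩
    have hw0 : w ≠ 0 := by
      rintro rfl
      simp at hw
    have hT := summable_tterm hs hpd hw b
    set ρ := (w ^ (1 / 2 : ℂ))⁻¹ with hρ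
    have hr : 1 / (w * (A 0 0 : ℂ)) ^ (1 / 2 : ℂ) = ((A 0 0 : ℂ) ^ (1 / 2 : ℂ))⁻¹ * ρ := by
      rw [cpow_half_mul hw0 ha, hρ, one_div, mul_inv]
    have hh := summable_hterm (hpd.inv hi) (inv_isSymm hs hi) hw b
    calc ∑' x, gterm A w b x
        = ∑' x' : Fin n → ℤ, ∑' x₀ : ℤ, gterm A w b (Fin.cons x₀ x') :=
          tsum_cons' (summable_gterm hpd hw b)
      _ = ∑' x' : Fin n → ℤ, 1 / (w * (A 0 0 : ℂ)) ^ (1 / 2 : ℂ) * ∑' y₀ : ℤ, tterm A w b x' y₀ :=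
          tsum_congr fun x' => inner_sum hs ha hw b x'
      _ = 1 / (w * (A 0 0 : ℂ)) ^ (1 / 2 : ℂ) * ∑' x' : Fin n → ℤ, ∑' y₀ : ℤ, tterm A w b x' y₀ :=
          tsum_mul_left
      _ = 1 / (w * (A 0 0 : ℂ)) ^ (1 / 2 : ℂ) * ∑' y₀ : ℤ, ∑' x' : Fin n → ℤ, tterm A w b x' y₀ := by
          rw [hT.tsum_comm]
      _ = 1 / (w * (A 0 0 : ℂ)) ^ (1 / 2 : ℂ)
            * ∑' y₀ : ℤ, (∑' x' : Fin n → ℤ, gterm (schur A) w (bb A b y₀) x') * t₂ A w b y₀ := by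
          congr 1
          refine tsum_congr fun y₀ => ?_
          rw [← tsum_mul_right]
          exact tsum_congr fun x' => tterm_eq hs ha hw b x' y₀
      _ = 1 / (w * (A 0 0 : ℂ)) ^ (1 / 2 : ℂ)
            * ∑' y₀ : ℤ, (CS * ρ ^ n * ∑' y' : Fin n → ℤ, hterm (br A') w (bb A b y₀) y')
                * t₂ A w b y₀ := by
          congr 1
          refine tsum_congr fun y₀ => ?_
          rw [hCS w hw]
      _ = 1 / (w * (A 0 0 : ℂ)) ^ (1 / 2 : ℂ) * (CS * ρ ^ n)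
            * ∑' y₀ : ℤ, ∑' y' : Fin n → ℤ, hterm A' w b (Fin.cons y₀ y') := by
          have key : ∀ y₀ : ℤ, (CS * ρ ^ n * ∑' y' : Fin n → ℤ, hterm (br A') w (bb A b y₀) y')
              * t₂ A w b y₀ = (CS * ρ ^ n) * ∑' y' : Fin n → ℤ, hterm A' w b (Fin.cons y₀ y') := by
            intro y₀
            simp_rw [← hterm_cons hs ha hi hw b y₀]
            rw [tsum_mul_left]
            ring
          simp_rw [key]
          rw [tsum_mul_left]
          ring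
      _ = ((A 0 0 : ℂ) ^ (1 / 2 : ℂ))⁻¹ * CS * ρ ^ (n + 1) * ∑' y, hterm A' w b y := by
          rw [tsum_cons hh (f := hterm A' w b), hr, pow_succ]
          ring

end complex

end Cfsg.Agent.Lib.Theta.Poisson
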