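import Cfsg.Agent.Lib.Theta.Poisson

set_option autoImplicit false
open Matrix Complex
open scoped Real

namespace Cfsg.Agent.Lib.Theta.Unimodular

open Cfsg.Agent.Lib.Theta.Poisson

variable {n : ℕ}

/-- The quadratic form of an integer matrix. -/
def Q (B : Matrix (Fin n) (Fin n) ℤ) (x : Fin n → ℤ) : ℤ := x ⬝ᵥ (B *ᵥ x)

/-- The associated real matrix. -/
def rB (B : Matrix (Fin n) (Fin n) ℤ) : Matrix (Fin n) (Fin n) ℝ := fun i j => (B i j : ℝ)

lemma Qc_rB (B : Matrix (Fin n) (Fin n) ℤ) (x : Fin n → ℤ) :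
    Qc (rB B) (ci x) = (Q B x : ℂ) := by
  simp [Qc, Q, ci, rB, cplx, dotProduct, mulVec]

lemma rB_isSymm {B : Matrix (Fin n) (Fin n) ℤ} (h : B.IsSymm) : (rB B).IsSymm := by
  ext i j
  simp [rB, h.apply]

lemma rB_mul (B C : Matrix (Fin n) (Fin n) ℤ) : rB (B * C) = rB B * rB C := by
  ext i j
  simp [rB, mul_apply]

lemma rB_one : rB (1 : Matrix (Fin n) (Fin n) ℤ) = 1 := by
  ext i j
  simp only [rB, one_apply]
  split_ifs <;> simp

/-- Positive definiteness on integer vectors implies positive definiteness on real vectors. -/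
lemma rB_pd {B : Matrix (Fin n) (Fin n) ℤ} (hs : B.IsSymm)
    (hpos : ∀ x : Fin n → ℤ, x ≠ 0 → 0 < x ⬝ᵥ (B *ᵥ x)) : PD (rB B) := by
  set R : Matrix (Fin n) (Fin n) ℚ := fun i j => (B i j : ℚ) with hR
  have hRs : R.IsSymm := by
    ext i j
    change ((B j i : ℤ) : ℚ) = ((B i j : ℤ) : ℚ)
    rw [hs.apply]
  have hRpd : PD R := by
    intro q hq
    obtain ⟨b, hb⟩ := IsLocalization.exist_integer_multiples_of_finite (nonZeroDivisors ℤ) q
    choose x hx using hb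
    have hb0 : ((b : ℤ) : ℚ) ≠ 0 := by
      have := nonZeroDivisors.ne_zero b.2
      exact_mod_cast this
    have hxq : ∀ i, (x i : ℚ) = (b : ℤ) * q i := by
      intro i
      have := hx i
      simpa [zsmul_eq_mul, Subsemiring.smul_def] using this
    have hx0 : x ≠ 0 := by
      rintro rfl
      apply hq
      funext i
      have := hxq i
      simp only [Pi.zero_apply, Int.cast_zero] at this
      simpa [hb0] using this.symm
    have h1 := hpos x hx0
    have h2 : ((x ⬝ᵥ (B *ᵥ x) : ℤ) : ℚ) = ((b : ℤ) : ℚ) ^ 2 * (q ⬝ᵥ (R *ᵥ q)) := by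
      simp only [dotProduct, mulVec, hR, Int.cast_sum, Int.cast_mul, hxq, Finset.mul_sum]
      refine Finset.sum_congr rfl fun i _ => Finset.sum_congr rfl fun j _ => ?_
      ring
    have h3 : (0 : ℚ) < ((x ⬝ᵥ (B *ᵥ x) : ℤ) : ℚ) := by exact_mod_cast h1
    rw [h2] at h3
    have h4 : (0 : ℚ) < ((b : ℤ) : ℚ) ^ 2 := by positivity
    exact (pos_iff_pos_of_mul_pos h3).mp h4
  have h5 := pd_map_real hRs hRpd
  have h6 : R.map (fun q : ℚ => (q : ℝ)) = rB B := by
    ext i j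
    change (((B i j : ℤ) : ℚ) : ℝ) = ((B i j : ℤ) : ℝ)
    simp
  rwa [h6] at h5

/-- The theta series, as a function of `w` in the right half plane. -/
noncomputable def Θ (B : Matrix (Fin n) (Fin n) ℤ) (w : ℂ) : ℂ :=
  ∑' x : Fin n → ℤ, cexp (-π * w * (Q B x : ℂ))

lemma gterm_zero (B : Matrix (Fin n) (Fin n) ℤ) (w : ℂ) (x : Fin n → ℤ) :
    gterm (rB B) w 0 x = cexp (-π * w * (Q B x : ℂ)) := by
  simp [gterm, Qc_rB]

lemma summable_term {B : Matrix (Fin n) (Fin n) ℤ} (hpd : PD (rB B)) {w : ℂ} (hw : 0 < w.re) :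
    Summable fun x : Fin n → ℤ => cexp (-π * w * (Q B x : ℂ)) :=
  (summable_gterm hpd hw 0).congr fun x => gterm_zero B w x

lemma norm_term (B : Matrix (Fin n) (Fin n) ℤ) (w : ℂ) (x : Fin n → ℤ) :
    ‖cexp (-π * w * (Q B x : ℂ))‖ = Real.exp (-π * w.re * (Q B x : ℝ)) := by
  rw [Complex.norm_exp]
  congr 1
  rw [show (-(π : ℂ) * w * (Q B x : ℂ)) = ((-π * (Q B x : ℝ) : ℝ) : ℂ) * w by push_cast; ring,
    re_ofReal_mul]
  ring

lemma summable_real {B : Matrix (Fin n) (Fin n) ℤ} (hpd : PD (rB B)) {e : ℝ} (he : 0 < e) :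
    Summable fun x : Fin n → ℤ => Real.exp (-π * e * (Q B x : ℝ)) := by
  have h := (summable_term (B := B) hpd (w := (e : ℂ)) (by simpa using he)).norm
  refine h.congr fun x => ?_
  rw [norm_term]
  simp

lemma Theta_one_ne_zero {B : Matrix (Fin n) (Fin n) ℤ} (hpd : PD (rB B)) : Θ B 1 ≠ 0 := by
  intro h0
  have h1 := summable_real (B := B) hpd one_pos
  have h2 := h1.tsum_pos (fun x => (Real.exp_pos _).le) 0 (Real.exp_pos _)
  have h3 : Θ B 1 = ((∑' x : Fin n → ℤ, Real.exp (-π * 1 * (Q B x : ℝ)) : ℝ) : ℂ) := by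
    rw [Θ, Complex.ofReal_tsum]
    refine tsum_congr fun x => ?_
    push_cast
    norm_num
  rw [h3] at h0
  have h4 : (∑' x : Fin n → ℤ, Real.exp (-π * 1 * (Q B x : ℝ)) : ℝ) = 0 := by exact_mod_cast h0
  linarith

/-- **Theta inversion** for a positive definite integer form of determinant one. -/
theorem Theta_inv {B : Matrix (Fin n) (Fin n) ℤ} (hs : B.IsSymm)
    (hpos : ∀ x : Fin n → ℤ, x ≠ 0 → 0 < x ⬝ᵥ (B *ᵥ x)) (hdet : B.det = 1)
    {w : ℂ} (hw : 0 < w.re) : Θ B w = ((w ^ (1 / 2 : ℂ))⁻¹) ^ n * Θ B w⁻¹ := by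
  have hpd := rB_pd hs hpos
  have hu : IsUnit B.det := by simp [hdet]
  set B' := B⁻¹ with hB'
  have h1 : B' * B = 1 := nonsing_inv_mul B hu
  have h2 : B * B' = 1 := mul_eq_one_comm.mp h1
  have h3 : rB B' * rB B = 1 := by rw [← rB_mul, h1, rB_one]
  obtain ⟨C, hC⟩ := poisson n (rB B) (rB B') (rB_isSymm hs) hpd h3
  -- the equivalence `y ↦ B' y`
  let e : (Fin n → ℤ) ≃ (Fin n → ℤ) :=
    { toFun := fun y => B' *ᵥ y
      invFun := fun x => B *ᵥ x
      left_inv := fun y => by simp [mulVec_mulVec, h2]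
      right_inv := fun x => by simp [mulVec_mulVec, h1] }
  have hd : ∀ u : ℂ, 0 < u.re → ∑' y, hterm (rB B') u 0 y = Θ B u⁻¹ := by
    intro u _
    rw [Θ, ← e.tsum_eq (fun x => cexp (-π * u⁻¹ * (Q B x : ℂ)))]
    refine tsum_congr fun y => ?_
    have h4 : Q B (e y) = Q B' y := by
      change (B' *ᵥ y) ⬝ᵥ (B *ᵥ (B' *ᵥ y)) = y ⬝ᵥ (B' *ᵥ y)
      rw [mulVec_mulVec, h2, one_mulVec, dotProduct_comm]
    rw [h4, hterm, smul_zero, add_zero, Qc_rB, div_eq_mul_inv]
  have hg : ∀ u : ℂ, ∑' x, gterm (rB B) u 0 x = Θ B u := fun u =>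
    tsum_congr fun x => gterm_zero B u x
  have hC1 : C = 1 := by
    have := hC 1 (by simp) 0
    rw [hg, hd 1 (by simp)] at this
    simp only [one_cpow, inv_one, one_pow, mul_one] at this
    have h5 := Theta_one_ne_zero hpd
    exact (mul_right_cancel₀ h5 (by rw [one_mul]; exact this)).symm
  have := hC w hw 0
  rw [hg, hd w hw, hC1, one_mul] at this
  exact this

end Cfsg.Agent.Lib.Theta.Unimodular
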